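import Mathlib

set_option autoImplicit false
set_option linter.unusedSectionVars false

/-! S5165 farm (helper85): pieces D1 and D2 (splitting a `p`-element of a symmetric group). -/

namespace Cfsg.Agent.Lib.Helper72.AltD

open Equiv Equiv.Perm

variable {p : ℕ} [Fact p.Prime]
variable {α : Type*} [Fintype α] [DecidableEq α]

lemma dvd_of_zpow_fix (g : Perm α) (k : ℕ) (hg : g ^ p ^ k = 1) (y : α) (hy : g y ≠ y) (m : ℤ)
    (hm : (g ^ m) y = y) : (p : ℤ) ∣ m := by
  by_contra h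
  have hp : Prime (p : ℤ) := Nat.prime_iff_prime_int.1 (Fact.out)
  have hc : IsCoprime (p : ℤ) m := (Prime.coprime_iff_not_dvd hp).2 h
  have hc' : IsCoprime ((p : ℤ) ^ k) m := hc.pow_left
  obtain ⟨a, b, hab⟩ := hc'
  apply hy
  have h1 : (g ^ (a * (p : ℤ) ^ k)) = 1 := by
    rw [mul_comm, zpow_mul]
    have : g ^ ((p : ℤ) ^ k) = 1 := by
      have := hg
      rw [← zpow_natCast] at this
      push_cast at this
      exact this
    rw [this, one_zpow]
  have h2 : (g ^ (b * m)) y = y := by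
    rw [mul_comm, zpow_mul]
    exact zpow_apply_eq_self_of_apply_eq_self hm b
  calc g y = (g ^ (a * (p : ℤ) ^ k + b * m)) y := by rw [hab, zpow_one]
    _ = y := by rw [zpow_add, h1, one_mul, h2]

/-- [D1] -/
theorem exists_level (g : Perm α) (k : ℕ) (hg : g ^ p ^ k = 1) :
    ∃ lam : α → ZMod p, ∀ x, g x ≠ x → lam (g x) = lam x + 1 := by
  classical
  let s := SameCycle.setoid g
  let r : α → α := fun x => (Quotient.mk s x).out
  have hr : ∀ x, SameCycle g (r x) x := fun x => Quotient.exact (Quotient.out_eq (Quotient.mk s x))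
  choose n hn using hr
  refine ⟨fun x => (n x : ZMod p), fun x hx => ?_⟩
  have hrr : r (g x) = r x := by
    show (Quotient.mk s (g x)).out = (Quotient.mk s x).out
    congr 1
    apply Quotient.sound
    exact (sameCycle_apply_left.2 (SameCycle.refl g x))
  have h1 := hn (g x)
  rw [hrr] at h1
  have h2 := hn x
  have hfix : g (r x) ≠ r x := by
    intro h
    apply hx
    have h3 : (g ^ n x) (r x) = r x := zpow_apply_eq_self_of_apply_eq_self h _
    rw [h2] at h3
    rw [h3, h]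
  have h3 : (g ^ (n (g x) - n x - 1)) (r x) = r x := by
    have e : n (g x) - n x - 1 = -(1 + n x) + n (g x) := by ring
    rw [e, zpow_add, Perm.mul_apply, h1, zpow_neg, Perm.inv_eq_iff_eq, zpow_add, zpow_one, Perm.mul_apply, h2]
  have h5 := dvd_of_zpow_fix g k hg (r x) hfix _ h3
  have h4 : ((n (g x) - n x - 1 : ℤ) : ZMod p) = 0 := (ZMod.intCast_zmod_eq_zero_iff_dvd _ p).2 h5
  push_cast at h4
  show ((n (g x) : ℤ) : ZMod p) = (n x : ZMod p) + 1
  linear_combination h4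

section D2

variable {g : Perm α} {lam : α → ZMod p}

lemma lam_zpow (hlam : ∀ x, g x ≠ x → lam (g x) = lam x + 1) (x : α) (hx : g x ≠ x) (m : ℤ) :
    lam ((g ^ m) x) = lam x + m := by
  induction m using Int.induction_on with
  | zero => simp
  | succ i ih =>
    have h1 : g ((g ^ (i : ℤ)) x) ≠ (g ^ (i : ℤ)) x := fun h => hx ((apply_zpow_apply_eq_iff g _).1 h)
    rw [add_comm (i : ℤ) 1, zpow_add, zpow_one, Perm.mul_apply, hlam _ h1, ih]
    push_cast
    ring
  | pred i ih =>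
    have h1 : g ((g ^ (-(i : ℤ) - 1)) x) ≠ (g ^ (-(i : ℤ) - 1)) x :=
      fun h => hx ((apply_zpow_apply_eq_iff g _).1 h)
    have h2 := hlam _ h1
    rw [← Perm.mul_apply, ← zpow_one_add] at h2
    have e : 1 + (-(i : ℤ) - 1) = -(i : ℤ) := by ring
    rw [e, ih] at h2
    push_cast at h2 ⊢
    linear_combination -h2

lemma lam_p (hlam : ∀ x, g x ≠ x → lam (g x) = lam x + 1) (x : α) (m : ℤ) :
    lam ((g ^ ((p : ℤ) * m)) x) = lam x := by
  by_cases hx : g x = x
  · rw [zpow_apply_eq_self_of_apply_eq_self hx]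
  · rw [lam_zpow hlam x hx]
    push_cast
    simp

/-- `b_u x = g ^ (p * u (lam x)) x`. -/
def bb (hlam : ∀ x, g x ≠ x → lam (g x) = lam x + 1) (u : ZMod p → ℤ) : Perm α where
  toFun x := (g ^ ((p : ℤ) * u (lam x))) x
  invFun x := (g ^ ((p : ℤ) * -u (lam x))) x
  left_inv x := by
    show (g ^ ((p : ℤ) * -u (lam ((g ^ ((p : ℤ) * u (lam x))) x)))) ((g ^ ((p : ℤ) * u (lam x))) x) = x
    rw [lam_p hlam, ← Perm.mul_apply, ← zpow_add]
    simp
  right_inv x := by
    show (g ^ ((p : ℤ) * u (lam ((g ^ ((p : ℤ) * -u (lam x))) x)))) ((g ^ ((p : ℤ) * -u (lam x))) x) = x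
    rw [lam_p hlam, ← Perm.mul_apply, ← zpow_add]
    simp

variable (hlam : ∀ x, g x ≠ x → lam (g x) = lam x + 1)

lemma bb_apply (u : ZMod p → ℤ) (x : α) : bb hlam u x = (g ^ ((p : ℤ) * u (lam x))) x := rfl

lemma bb_mul (u v : ZMod p → ℤ) : bb hlam u * bb hlam v = bb hlam (u + v) := by
  ext x
  rw [Perm.mul_apply, bb_apply, bb_apply, bb_apply, lam_p hlam, ← Perm.mul_apply, ← zpow_add, Pi.add_apply,
    mul_add]

lemma bb_zero : bb hlam 0 = 1 := by
  ext x
  simp [bb_apply]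

lemma bb_inv (u : ZMod p → ℤ) : (bb hlam u)⁻¹ = bb hlam (-u) := by
  rw [inv_eq_iff_mul_eq_one, bb_mul, add_neg_cancel, bb_zero]

lemma bb_pow (u : ZMod p → ℤ) (k : ℕ) : bb hlam u ^ k = bb hlam (k • u) := by
  induction k with
  | zero => rw [pow_zero, zero_smul, bb_zero]
  | succ k ih => rw [pow_succ, ih, bb_mul, succ_nsmul]

lemma bb_g (u : ZMod p → ℤ) : bb hlam u * g = g * bb hlam (fun a => u (a + 1)) := by
  ext x
  rw [Perm.mul_apply, Perm.mul_apply, bb_apply, bb_apply]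
  by_cases hx : g x = x
  · rw [hx, zpow_apply_eq_self_of_apply_eq_self hx, zpow_apply_eq_self_of_apply_eq_self hx, hx]
  · rw [hlam x hx, ← Perm.mul_apply, ← Perm.mul_apply, ← zpow_add_one, ← zpow_one_add, add_comm]

lemma gb_pow (u : ZMod p → ℤ) (k : ℕ) :
    (g * bb hlam u) ^ k = g ^ k * bb hlam (fun a => ∑ i ∈ Finset.range k, u (a + i)) := by
  induction k with
  | zero =>
    rw [pow_zero, pow_zero, one_mul]
    exact (bb_zero hlam).symm
  | succ k ih =>
    rw [pow_succ, ih, mul_assoc, ← mul_assoc (bb _ _) g, bb_g, mul_assoc, bb_mul, ← mul_assoc, ← pow_succ]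
    congr 2
    funext a
    rw [Pi.add_apply, Finset.sum_range_succ']
    congr 1
    · apply Finset.sum_congr rfl
      intro i _
      congr 1
      push_cast
      ring
    · simp

lemma sum_shift (u : ZMod p → ℤ) (a : ZMod p) :
    ∑ i ∈ Finset.range p, u (a + i) = ∑ z : ZMod p, u z := by
  apply Finset.sum_nbij' (i := fun i : ℕ => a + (i : ZMod p)) (j := fun z : ZMod p => (z - a).val)
  · intro i _; exact Finset.mem_univ _
  · intro z _; exact Finset.mem_range.2 (ZMod.val_lt _)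
  · intro i hi
    show (a + (i : ZMod p) - a).val = i
    rw [add_sub_cancel_left, ZMod.val_natCast_of_lt (Finset.mem_range.1 hi)]
  · intro z _
    show a + (((z - a).val : ℕ) : ZMod p) = z
    rw [ZMod.natCast_zmod_val]
    ring
  · intro i _; rfl

lemma bb_const (m : ℤ) : bb hlam (fun _ => m) = g ^ ((p : ℤ) * m) := by
  ext x
  rw [bb_apply]

/-- the group of all `b_u`. -/
def BB : Subgroup (Perm α) where
  carrier := {w | ∃ u, w = bb hlam u}
  one_mem' := ⟨0, (bb_zero hlam).symm⟩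
  mul_mem' := by
    rintro _ _ ⟨u, rfl⟩ ⟨v, rfl⟩
    exact ⟨u + v, bb_mul hlam u v⟩
  inv_mem' := by
    rintro _ ⟨u, rfl⟩
    exact ⟨-u, bb_inv hlam u⟩

lemma BB_pgroup (j : ℕ) (hg : g ^ p ^ (j + 1) = 1) : IsPGroup p (BB hlam) := by
  rintro ⟨_, u, rfl⟩
  refine ⟨j, ?_⟩
  apply Subtype.ext
  show bb hlam u ^ p ^ j = 1
  rw [bb_pow]
  ext x
  rw [bb_apply, Perm.one_apply]
  have e : (p : ℤ) * ((p ^ j) • u) (lam x) = ((p ^ (j + 1) : ℕ) : ℤ) * u (lam x) := by
    rw [Pi.smul_apply, nsmul_eq_mul]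
    push_cast
    ring
  rw [e, zpow_mul, zpow_natCast, hg, one_zpow, Perm.one_apply]

lemma zpowers_pgroup (k : ℕ) (hg : g ^ p ^ k = 1) : IsPGroup p (Subgroup.zpowers g) := by
  rintro ⟨_, m, rfl⟩
  refine ⟨k, ?_⟩
  apply Subtype.ext
  show (g ^ m) ^ p ^ k = 1
  rw [← zpow_natCast, ← zpow_mul, mul_comm, zpow_mul, zpow_natCast, hg, one_zpow]

lemma g_mem_normalizer : g ∈ Subgroup.normalizer (BB hlam : Set (Perm α)) := by
  rw [Subgroup.mem_normalizer_iff]
  intro w
  constructor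
  · rintro ⟨u, rfl⟩
    refine ⟨fun a => u (a - 1), ?_⟩
    have := bb_g hlam (fun a => u (a - 1))
    simp only [add_sub_cancel_right] at this
    rw [← this, mul_assoc, mul_inv_cancel, mul_one]
  · rintro ⟨u, hu⟩
    refine ⟨fun a => u (a + 1), ?_⟩
    have := bb_g hlam u
    rw [← hu] at this
    have h2 : g * w = g * bb hlam (fun a => u (a + 1)) := by
      rw [← this]; group
    exact mul_left_cancel h2

end D2

/-- [D2] -/
theorem lemmaD_of_level (g : Perm α) (j : ℕ) (hg : g ^ p ^ (j + 1) = 1)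
    (lam : α → ZMod p) (hlam : ∀ x, g x ≠ x → lam (g x) = lam x + 1) :
    ∃ h c : Perm α, g = h * c ∧ h ^ p = 1 ∧ c ^ p ^ j = 1 ∧ IsPGroup p (Subgroup.closure {h, c}) ∧
      (∀ x, g x ≠ x → h x ≠ x) ∧ (∀ x, g x = x → h x = x) ∧ (∀ x, (g ^ p) x = x → c x = x) := by
  set δ : ZMod p → ℤ := Pi.single 0 1 with hδ
  refine ⟨g * bb hlam (-δ), bb hlam δ, ?_, ?_, ?_, ?_, ?_, ?_, ?_⟩
  · rw [mul_assoc, bb_mul, neg_add_cancel, bb_zero, mul_one]
  · rw [gb_pow]
    have : (fun a : ZMod p => ∑ i ∈ Finset.range p, (-δ) (a + i)) = fun _ => (-1 : ℤ) := by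
      funext a
      rw [sum_shift]
      simp [hδ]
    rw [this, bb_const, ← zpow_natCast, ← zpow_add]
    simp
  · have := BB_pgroup hlam j hg
    rw [bb_pow]
    ext x
    rw [bb_apply, Perm.one_apply]
    have e : (p : ℤ) * ((p ^ j) • δ) (lam x) = ((p ^ (j + 1) : ℕ) : ℤ) * δ (lam x) := by
      rw [Pi.smul_apply, nsmul_eq_mul]
      push_cast
      ring
    rw [e, zpow_mul, zpow_natCast, hg, one_zpow, Perm.one_apply]
  · have hsup : IsPGroup p (Subgroup.zpowers g ⊔ BB hlam : Subgroup (Perm α)) :=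
      IsPGroup.to_sup_of_normal_right' (zpowers_pgroup (j + 1) hg) (BB_pgroup hlam j hg)
        (Subgroup.zpowers_le.2 (g_mem_normalizer hlam))
    refine hsup.to_le ?_
    rw [Subgroup.closure_le]
    rintro w (rfl | rfl)
    · exact Subgroup.mul_mem _ (Subgroup.mem_sup_left (Subgroup.mem_zpowers g))
        (Subgroup.mem_sup_right ⟨_, rfl⟩)
    · exact Subgroup.mem_sup_right ⟨_, rfl⟩
  · intro x hx h
    rw [Perm.mul_apply, bb_apply, ← Perm.mul_apply, ← zpow_one_add] at h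
    have h1 := dvd_of_zpow_fix g (j + 1) hg x hx _ h
    have h2 : (p : ℤ) ∣ 1 := (Int.dvd_add_left (Dvd.intro _ rfl)).1 h1
    have h3 : p ∣ 1 := by exact_mod_cast h2
    exact (Fact.out : p.Prime).one_lt.ne' (Nat.dvd_one.1 h3)
  · intro x hx
    rw [Perm.mul_apply, bb_apply, zpow_apply_eq_self_of_apply_eq_self hx, hx]
  · intro x hx
    rw [bb_apply, zpow_mul, zpow_natCast]
    exact zpow_apply_eq_self_of_apply_eq_self hx _

end Cfsg.Agent.Lib.Helper72.AltD
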