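import Mathlib
import Cfsg.Agent.Lib.Helper72.AltD1

set_option autoImplicit false
set_option linter.unusedSectionVars false

/-! S5165 farm (helper85): piece D3 (parity fix for `p = 2`). -/

namespace Cfsg.Agent.Lib.Helper72.AltD

open Equiv Equiv.Perm

variable {α : Type*} [Fintype α] [DecidableEq α]

lemma sign_invol {h : Perm α} (hh : h ^ 2 = 1) (h4 : 4 ∣ h.support.card) : sign h = 1 := by
  by_cases h1 : h = 1
  · rw [h1, map_one]
  have ho : orderOf h = 2 := orderOf_eq_prime hh h1
  obtain ⟨n, hn⟩ := cycleType_prime_order (σ := h) (by rw [ho]; exact Nat.prime_two)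
  rw [ho] at hn
  have hcard : h.support.card = (n + 1) * 2 := by
    rw [← sum_cycleType, hn, Multiset.sum_replicate, smul_eq_mul]
  rw [sign_of_cycleType, hn, Multiset.sum_replicate, Multiset.card_replicate, smul_eq_mul]
  have he : Even ((n + 1) * 2 + (n + 1)) := by
    rw [hcard] at h4
    rw [even_iff_two_dvd]
    omega
  rw [he.neg_one_pow]

lemma four_dvd_support {g : Perm α} (k : ℕ) (hg : g ^ 2 ^ k = 1)
    (hcase : ∀ x, (g ^ 2) x = x → g x = x) : 4 ∣ g.support.card := by
  rw [← sum_cycleType]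
  apply Multiset.dvd_sum
  intro n hn
  have h1 : n ∣ 2 ^ k := (dvd_of_mem_cycleType hn).trans (orderOf_dvd_of_pow_eq_one hg)
  obtain ⟨a, ha, rfl⟩ := (Nat.dvd_prime_pow Nat.prime_two).1 h1
  have h2 : 2 ≤ 2 ^ a := two_le_of_mem_cycleType hn
  have ha0 : a ≠ 0 := by
    rintro rfl
    simp at h2
  have ha1 : a ≠ 1 := by
    rintro rfl
    rw [pow_one] at hn
    obtain ⟨c, τ, rfl, hdis, hcyc, hcard⟩ := mem_cycleType_iff.1 hn
    obtain ⟨x, y, hxy, rfl⟩ := card_support_eq_two.1 hcard
    have hx : τ x = x := by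
      rcases hdis x with h | h
      · rw [swap_apply_left] at h
        exact absurd h.symm hxy
      · exact h
    have hy : τ y = y := by
      rcases hdis y with h | h
      · rw [swap_apply_right] at h
        exact absurd h hxy
      · exact h
    have h3 : ((swap x y * τ) ^ 2) x = x := by
      rw [pow_two, Perm.mul_apply, Perm.mul_apply, Perm.mul_apply, hx, swap_apply_left, hy, swap_apply_right]
    have h4 := hcase x h3
    rw [Perm.mul_apply, hx, swap_apply_left] at h4
    exact hxy h4.symm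
  have : 2 ≤ a := by omega
  exact pow_dvd_pow 2 this

lemma commute_mem_normalizer {G : Type*} [Group G] {w t : G} (h : Commute w t) :
    w ∈ Subgroup.normalizer (Subgroup.zpowers t : Set G) := by
  rw [Subgroup.mem_normalizer_iff]
  intro y
  constructor
  · rintro ⟨m, rfl⟩
    refine ⟨m, ?_⟩
    show t ^ m = w * t ^ m * w⁻¹
    rw [(h.zpow_right m).eq, mul_assoc, mul_inv_cancel, mul_one]
  · rintro ⟨m, hm⟩
    refine ⟨m, ?_⟩
    have hm' : t ^ m = w * y * w⁻¹ := hm
    show t ^ m = y
    have h2 : w * t ^ m = w * y := by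
      rw [(h.zpow_right m).eq, hm']
      group
    exact mul_left_cancel h2

/-- [D3] -/
theorem lemmaD_two
    (hD : ∀ (g : Perm α) (j : ℕ), g ^ 2 ^ (j + 1) = 1 →
      ∃ h c : Perm α, g = h * c ∧ h ^ 2 = 1 ∧ c ^ 2 ^ j = 1 ∧ IsPGroup 2 (Subgroup.closure {h, c}) ∧
      (∀ x, g x ≠ x → h x ≠ x) ∧ (∀ x, g x = x → h x = x) ∧ (∀ x, (g ^ 2) x = x → c x = x))
    (g : Perm α) (j : ℕ) (hj : 1 ≤ j) (hg : g ^ 2 ^ (j + 1) = 1) (hs : sign g = 1) :
    ∃ h c : Perm α, g = h * c ∧ h ^ 2 = 1 ∧ c ^ 2 ^ j = 1 ∧ IsPGroup 2 (Subgroup.closure {h, c}) ∧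
      sign h = 1 ∧ sign c = 1 := by
  obtain ⟨h, c, hgc, hh, hc, hP, h5, h6, h7⟩ := hD g j hg
  have hsign : sign h * sign c = 1 := by rw [← map_mul, ← hgc, hs]
  by_cases hc1 : sign c = 1
  · refine ⟨h, c, hgc, hh, hc, hP, ?_, hc1⟩
    rwa [hc1, mul_one] at hsign
  have hcm : sign c = -1 := (Int.units_eq_one_or _).resolve_left hc1
  have hhm : sign h = -1 := by
    rw [hcm] at hsign
    rcases Int.units_eq_one_or (sign h) with h1 | h1
    · rw [h1] at hsign
      exact absurd hsign (by decide)
    · exact h1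
  by_cases hcase : ∃ x, g x ≠ x ∧ (g ^ 2) x = x
  · obtain ⟨x, hx1, hx2⟩ := hcase
    have hgg : g (g x) = x := by rwa [pow_two, Perm.mul_apply] at hx2
    set t : Perm α := swap x (g x) with ht
    have ht2 : t * t = 1 := swap_mul_self _ _
    have ht2' : t ^ 2 = 1 := by rw [pow_two, ht2]
    have hgt : Commute g t := by
      show g * t = t * g
      rw [ht, mul_swap_eq_swap_mul, hgg, swap_comm]
    have hcx : c x = x := h7 x hx2
    have hcgx : c (g x) = g x := h7 (g x) (by rw [pow_two, Perm.mul_apply, hgg])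
    have hct : Commute c t := by
      show c * t = t * c
      rw [ht, mul_swap_eq_swap_mul, hcx, hcgx]
    have hhe : h = g * c⁻¹ := by rw [hgc, mul_assoc, mul_inv_cancel, mul_one]
    have hht : Commute h t := by
      rw [hhe]
      exact hgt.mul_left hct.inv_left
    obtain ⟨j', rfl⟩ : ∃ j', j = j' + 1 := ⟨j - 1, by omega⟩
    refine ⟨h * t, t * c, ?_, ?_, ?_, ?_, ?_, ?_⟩
    · rw [mul_assoc, ← mul_assoc t t c, ht2, one_mul, hgc]
    · rw [hht.mul_pow, hh, ht2', one_mul]
    · rw [hct.symm.mul_pow, hc, mul_one, pow_succ, mul_comm, pow_mul, ht2', one_pow]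
    · have hsup : IsPGroup 2 (Subgroup.closure {h, c} ⊔ Subgroup.zpowers t : Subgroup (Perm α)) := by
        refine IsPGroup.to_sup_of_normal_right' hP (zpowers_pgroup 1 (by rw [pow_one, ht2'])) ?_
        rw [Subgroup.closure_le]
        rintro w (rfl | rfl)
        · exact commute_mem_normalizer hht
        · exact commute_mem_normalizer hct
      refine hsup.to_le ?_
      rw [Subgroup.closure_le]
      have m1 : h ∈ (Subgroup.closure {h, c} ⊔ Subgroup.zpowers t : Subgroup (Perm α)) :=
        Subgroup.mem_sup_left (Subgroup.subset_closure (by simp))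
      have m2 : c ∈ (Subgroup.closure {h, c} ⊔ Subgroup.zpowers t : Subgroup (Perm α)) :=
        Subgroup.mem_sup_left (Subgroup.subset_closure (by simp))
      have m3 : t ∈ (Subgroup.closure {h, c} ⊔ Subgroup.zpowers t : Subgroup (Perm α)) :=
        Subgroup.mem_sup_right (Subgroup.mem_zpowers t)
      rintro w (rfl | rfl)
      · exact Subgroup.mul_mem _ m1 m3
      · exact Subgroup.mul_mem _ m3 m2
    · rw [map_mul, hhm, ht, sign_swap (Ne.symm hx1)]
      decide
    · rw [map_mul, hcm, ht, sign_swap (Ne.symm hx1)]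
      decide
  · exfalso
    push Not at hcase
    have hcase' : ∀ x, (g ^ 2) x = x → g x = x := by
      intro x hx
      by_contra hne
      exact hcase x hne hx
    have h4 := four_dvd_support (j + 1) hg hcase'
    have hsupp : h.support = g.support := by
      ext x
      rw [mem_support, mem_support]
      constructor
      · intro hx hgx
        exact hx (h6 x hgx)
      · exact h5 x
    rw [← hsupp] at h4
    have := sign_invol hh h4
    rw [hhm] at this
    exact absurd this (by decide)

end Cfsg.Agent.Lib.Helper72.AltD
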