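import Mathlib
import Cfsg.Prelude

set_option autoImplicit false

/-! Sections `N_G(D)/D` of an ambient group (helper72): images of subgroups, orders, commutators,
normalizers.  -/

namespace Cfsg.Agent.Lib.Helper72.Bar

open Subgroup
open scoped commutatorElement

variable {G : Type*} [Group G] (D : Subgroup G)

/-- the group `N_G(D)/D`. -/
abbrev QG : Type _ := ↥(normalizer (D : Set G)) ⧸ D.subgroupOf (normalizer (D : Set G))

/-- the projection `N_G(D) → N_G(D)/D`. -/
def pr : ↥(normalizer (D : Set G)) →* QG D := QuotientGroup.mk' _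

/-- the image of `H ∩ N_G(D)` in `N_G(D)/D`. -/
def img (H : Subgroup G) : Subgroup (QG D) := (H.subgroupOf (normalizer (D : Set G))).map (pr D)

variable {D}

theorem pr_surjective : Function.Surjective (pr D) := QuotientGroup.mk'_surjective _

theorem pr_eq_one_iff {g : G} (hg : g ∈ normalizer (D : Set G)) : pr D ⟨g, hg⟩ = 1 ↔ g ∈ D := by
  unfold pr
  rw [QuotientGroup.mk'_apply, QuotientGroup.eq_one_iff, mem_subgroupOf]

theorem ker_pr : (pr D).ker = D.subgroupOf (normalizer (D : Set G)) := QuotientGroup.ker_mk' _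

theorem mem_img {H : Subgroup G} {y : QG D} :
    y ∈ img D H ↔ ∃ h, ∃ hN : h ∈ normalizer (D : Set G), h ∈ H ∧ pr D ⟨h, hN⟩ = y := by
  unfold img
  constructor
  · rintro ⟨⟨h, hN⟩, hh, rfl⟩
    exact ⟨h, hN, mem_subgroupOf.1 hh, rfl⟩
  · rintro ⟨h, hN, hh, rfl⟩
    exact ⟨⟨h, hN⟩, mem_subgroupOf.2 hh, rfl⟩

theorem pr_mem_img {H : Subgroup G} {h : G} (hN : h ∈ normalizer (D : Set G)) (hh : h ∈ H) :
    pr D ⟨h, hN⟩ ∈ img D H := mem_img.2 ⟨h, hN, hh, rfl⟩

theorem img_mono {H K : Subgroup G} (h : H ≤ K) : img D H ≤ img D K := by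
  intro y hy
  obtain ⟨x, hN, hx, rfl⟩ := mem_img.1 hy
  exact pr_mem_img hN (h hx)

/-- if `D ≤ H`, membership in the image can be tested on any representative. -/
theorem pr_mem_img_iff {H : Subgroup G} (hD : D ≤ H) {h : G} (hN : h ∈ normalizer (D : Set G)) :
    pr D ⟨h, hN⟩ ∈ img D H ↔ h ∈ H := by
  refine ⟨fun hy => ?_, pr_mem_img hN⟩
  obtain ⟨x, hxN, hx, he⟩ := mem_img.1 hy
  have h1 : pr D (⟨x, hxN⟩⁻¹ * ⟨h, hN⟩) = 1 := by rw [map_mul, map_inv, he, inv_mul_cancel]
  have h2 : x⁻¹ * h ∈ D := (pr_eq_one_iff (g := x⁻¹ * h) _).1 h1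
  have : h = x * (x⁻¹ * h) := by group
  rw [this]
  exact H.mul_mem hx (hD h2)

theorem img_eq_bot_iff {H : Subgroup G} (hH : H ≤ normalizer (D : Set G)) :
    img D H = ⊥ ↔ H ≤ D := by
  constructor
  · intro h x hx
    have : pr D ⟨x, hH hx⟩ ∈ img D H := pr_mem_img _ hx
    rw [h, mem_bot] at this
    exact (pr_eq_one_iff _).1 this
  · intro h
    rw [eq_bot_iff]
    intro y hy
    obtain ⟨x, hN, hx, rfl⟩ := mem_img.1 hy
    exact mem_bot.2 ((pr_eq_one_iff _).2 (h hx))

theorem subgroupOf_commutator {M H K : Subgroup G} (hH : H ≤ M) (hK : K ≤ M) :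
    (⁅H, K⁆).subgroupOf M = ⁅H.subgroupOf M, K.subgroupOf M⁆ := by
  apply map_injective M.subtype_injective
  rw [map_commutator, map_subgroupOf_eq_of_le hH, map_subgroupOf_eq_of_le hK,
    map_subgroupOf_eq_of_le]
  exact (commutator_mono hH hK).trans (by
    rw [commutator_le]
    intro a ha b hb
    exact M.mul_mem (M.mul_mem (M.mul_mem ha hb) (M.inv_mem ha)) (M.inv_mem hb))

theorem img_commutator {H K : Subgroup G} (hH : H ≤ normalizer (D : Set G))
    (hK : K ≤ normalizer (D : Set G)) : img D ⁅H, K⁆ = ⁅img D H, img D K⁆ := by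
  unfold img
  rw [subgroupOf_commutator hH hK, map_commutator]

theorem img_le_normalizer {H K : Subgroup G} (h : H ≤ normalizer (K : Set G)) :
    img D H ≤ normalizer (img D K : Set (QG D)) := by
  unfold img
  refine le_trans ?_ (le_normalizer_map (pr D))
  apply map_mono
  refine le_trans ?_ (le_normalizer_comap _)
  intro x hx
  exact h (mem_subgroupOf.1 hx)

theorem card_subgroupOf_of_le {H M : Subgroup G} (h : H ≤ M) :
    Nat.card (H.subgroupOf M) = Nat.card H :=
  Nat.card_congr (subgroupOfEquivOfLe h).toEquiv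

theorem card_img_mul [Finite G] {H : Subgroup G} (hH : H ≤ normalizer (D : Set G)) :
    Nat.card (img D H) * Nat.card (H ⊓ D : Subgroup G) = Nat.card H := by
  set M := normalizer (D : Set G)
  set H' := H.subgroupOf M
  have h1 : Nat.card H' = Nat.card H := card_subgroupOf_of_le hH
  let f : H' →* QG D := (pr D).comp H'.subtype
  have h2 : Nat.card f.range = Nat.card (img D H) := by
    have : f.range = img D H := by
      unfold img
      rw [MonoidHom.range_comp, range_subtype]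
    rw [this]
  have h3 : Nat.card f.ker = Nat.card (H ⊓ D : Subgroup G) := by
    refine Nat.card_congr ⟨fun x => ⟨x.1.1.1, ?_⟩, fun x => ⟨⟨⟨x.1, hH x.2.1⟩, ?_⟩, ?_⟩, ?_, ?_⟩
    · refine ⟨mem_subgroupOf.1 x.1.2, ?_⟩
      have := x.2
      rw [MonoidHom.mem_ker] at this
      exact (pr_eq_one_iff x.1.1.2).1 this
    · exact mem_subgroupOf.2 x.2.1
    · rw [MonoidHom.mem_ker]
      exact (pr_eq_one_iff _).2 x.2.2
    · intro x; rfl
    · intro x; rfl
  have h4 := Subgroup.card_eq_card_quotient_mul_card_subgroup f.ker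
  rw [Nat.card_congr (QuotientGroup.quotientKerEquivRange f).toEquiv, h1, h2, h3] at h4
  exact h4.symm

theorem card_img_dvd [Finite G] {H : Subgroup G} (hH : H ≤ normalizer (D : Set G)) :
    Nat.card (img D H) ∣ Nat.card H := ⟨_, (card_img_mul hH).symm⟩

theorem card_img_le [Finite G] {H : Subgroup G} (hH : H ≤ normalizer (D : Set G)) :
    Nat.card (img D H) ≤ Nat.card H := Nat.le_of_dvd Nat.card_pos (card_img_dvd hH)

theorem card_img_of_disjoint [Finite G] {H : Subgroup G} (hH : H ≤ normalizer (D : Set G))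
    (h : H ⊓ D = ⊥) : Nat.card (img D H) = Nat.card H := by
  have := card_img_mul hH
  rwa [h, card_bot, mul_one] at this

theorem card_img_lt [Finite G] {H : Subgroup G} (hH : H ≤ normalizer (D : Set G))
    (h : H ⊓ D ≠ ⊥) : Nat.card (img D H) < Nat.card H := by
  have h1 := card_img_mul hH
  have h2 : 1 < Nat.card (H ⊓ D : Subgroup G) := by
    rw [Subgroup.one_lt_card_iff_ne_bot]; exact h
  have h3 : 0 < Nat.card (img D H) := Nat.card_pos
  nlinarith

theorem isPGroup_img {p : ℕ} {H : Subgroup G} (h : IsPGroup p H) : IsPGroup p (img D H) := by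
  unfold img
  apply IsPGroup.map
  exact h.comap_of_injective _ (subtype_injective _)

theorem comm_img {H : Subgroup G} (h : ⁅H, H⁆ ≤ D) :
    ∀ x ∈ img D H, ∀ y ∈ img D H, x * y = y * x := by
  intro x hx y hy
  obtain ⟨a, haN, ha, rfl⟩ := mem_img.1 hx
  obtain ⟨b, hbN, hb, rfl⟩ := mem_img.1 hy
  have h1 : ⁅a, b⁆ ∈ D := h (commutator_mem_commutator ha hb)
  have h2 : pr D (⟨a, haN⟩ * ⟨b, hbN⟩ * ⟨a, haN⟩⁻¹ * ⟨b, hbN⟩⁻¹) = 1 :=
    (pr_eq_one_iff (g := a * b * a⁻¹ * b⁻¹) _).2 h1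
  rw [map_mul, map_mul, map_mul, map_inv, map_inv] at h2
  have h3 := mul_inv_eq_one.1 h2
  exact mul_inv_eq_iff_eq_mul.1 h3

theorem isMulCommutative_img {H : Subgroup G} (h : ⁅H, H⁆ ≤ D) : IsMulCommutative (img D H) :=
  ⟨⟨fun x y => Subtype.ext (comm_img h x.1 x.2 y.1 y.2)⟩⟩

end Cfsg.Agent.Lib.Helper72.Bar
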